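import Mathlib
import Cfsg.Prelude.Def_BlockLocal

set_option autoImplicit false

/-! # Ladder PI5, part D (perfectness): definitions -/

namespace Cfsg.Agent.Lib.Helper21.PI5D

open Cfsg

open Classical in
/-- the column of `y`: `χ ↦ χ y` on `B`, zero elsewhere -/
noncomputable def col {G : Type*} [Group G] (B : Set (IrrCharacter G)) (y : G) :
    IrrCharacter G → ℂ :=
  fun χ => if χ ∈ B then (χ : G → ℂ) y else 0

end Cfsg.Agent.Lib.Helper21.PI5D
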