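import Mathlib
import Cfsg.Agent.Lib.Helper21.PI5D.Defs

set_option autoImplicit false
set_option linter.unusedSectionVars false

/-! # Ladder PI5D, rung CSUM -/

namespace Cfsg.Agent.Lib.Helper21.PI5D

open scoped BigOperators
open Cfsg

variable {G : Type*} [Group G] [Fintype G]

open Classical in
theorem csum_fibre (y g : G) (hg : ∃ ω : G, ω * y * ω⁻¹ = g) :
    (Finset.univ.filter (fun ω : G => ω * y * ω⁻¹ = g)).card
      = Nat.card (Subgroup.centralizer ({y} : Set G)) := by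
  obtain ⟨ω₀, rfl⟩ := hg
  rw [Nat.card_eq_fintype_card, ← Finset.card_univ]
  symm
  refine Finset.card_bij (fun c _ => ω₀ * (c : G)) ?_ ?_ ?_
  · intro c _
    have hc := Subgroup.mem_centralizer_singleton_iff.1 c.2
    simp only [Finset.mem_filter, Finset.mem_univ, true_and]
    calc ω₀ * (c : G) * y * (ω₀ * (c : G))⁻¹ = ω₀ * ((c : G) * y) * (c : G)⁻¹ * ω₀⁻¹ := by group
      _ = ω₀ * (y * (c : G)) * (c : G)⁻¹ * ω₀⁻¹ := by rw [hc]
      _ = ω₀ * y * ω₀⁻¹ := by group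
  · intro a _ b _ hab
    exact Subtype.ext (mul_left_cancel hab)
  · intro ω hω
    simp only [Finset.mem_filter, Finset.mem_univ, true_and] at hω
    refine ⟨⟨ω₀⁻¹ * ω, ?_⟩, Finset.mem_univ _, by simp⟩
    rw [Subgroup.mem_centralizer_singleton_iff]
    calc ω₀⁻¹ * ω * y = ω₀⁻¹ * (ω * y * ω⁻¹) * ω := by group
      _ = ω₀⁻¹ * (ω₀ * y * ω₀⁻¹) * ω := by rw [hω]
      _ = y * (ω₀⁻¹ * ω) := by group

theorem csum (F : G → ℂ) (y : G) : ∃ s : Finset G,
    ∑ ω : G, F (ω * y * ω⁻¹) = (Nat.card (Subgroup.centralizer ({y} : Set G)) : ℂ) * ∑ g ∈ s, F g := by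
  classical
  refine ⟨Finset.univ.image (fun ω : G => ω * y * ω⁻¹), ?_⟩
  rw [← Finset.sum_fiberwise_of_maps_to (s := Finset.univ)
    (t := Finset.univ.image (fun ω : G => ω * y * ω⁻¹)) (g := fun ω : G => ω * y * ω⁻¹)
    (fun ω _ => Finset.mem_image_of_mem _ (Finset.mem_univ ω)), Finset.mul_sum]
  refine Finset.sum_congr rfl ?_
  intro g hg
  obtain ⟨ω₀, _, hω₀⟩ := Finset.mem_image.1 hg
  have h1 : ∑ ω ∈ Finset.univ.filter (fun ω : G => ω * y * ω⁻¹ = g), F (ω * y * ω⁻¹)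
      = ∑ ω ∈ Finset.univ.filter (fun ω : G => ω * y * ω⁻¹ = g), F g := by
    refine Finset.sum_congr rfl ?_
    intro ω hω
    rw [(Finset.mem_filter.1 hω).2]
  rw [h1, Finset.sum_const, csum_fibre y g ⟨ω₀, hω₀⟩, nsmul_eq_mul]

end Cfsg.Agent.Lib.Helper21.PI5D
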