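import Cfsg.Agent.Lib.Helper81.RankSum
import Cfsg.Agent.Lib.Helper82.Central
import Cfsg.Agent.Lib.Helper19.IndFun2
import Cfsg.Agent.Lib.Helper21.PI5D.Defs

set_option autoImplicit false
set_option linter.unusedSectionVars false

namespace Cfsg.Agent.Lib.Helper21.PI5D

open scoped BigOperators ComplexConjugate
open Cfsg Cfsg.Agent.Lib.Helper20 Cfsg.Agent.Lib.Helper81

variable {p : ℕ} [Fact p.Prime] {M : Ideal AlgInt} {G : Type*} [Group G] [Fintype G]

/-- the sum without conjugates is `bS` at the inverse -/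
theorem d1_bS (B : Set (IrrCharacter G)) (x y : G) :
    ∑ᶠ χ ∈ B, (χ : G → ℂ) x * (χ : G → ℂ) y = bS B x y⁻¹ := by
  unfold bS
  apply finsum_congr; intro χ
  apply finsum_congr; intro _
  rw [isCharacter_inv (isCharacter_of_isIrrCharacter χ.2), Complex.conj_conj]

theorem d1 (hM : IsPModular p M) {B : Set (IrrCharacter G)} (hB : IsPBlock M B) {x y : G}
    (hx : IsPRegular p x) (hy : ¬ IsPRegular p y) :
    ∑ᶠ χ ∈ B, (χ : G → ℂ) x * (χ : G → ℂ) y = 0 := by
  rw [d1_bS]
  refine (bS_regular_singular hM B hB hx ?_).1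
  unfold IsPRegular at hy
  rw [orderOf_inv]
  exact not_not.1 hy

end Cfsg.Agent.Lib.Helper21.PI5D
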