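import Cfsg.Agent.Lib.Helper81.RankSum
import Cfsg.Agent.Lib.Helper82.Central
import Cfsg.Agent.Lib.Helper19.IndFun2
import Cfsg.Agent.Lib.Helper21.PI5D.Defs
import Cfsg.Agent.Lib.Helper21.PI5D.D1
import Cfsg.Agent.Lib.Helper21.PI5D.CSUM

set_option autoImplicit false
set_option linter.unusedSectionVars false

namespace Cfsg.Agent.Lib.Helper21.PI5D

open scoped BigOperators ComplexConjugate
open Cfsg Cfsg.Agent.Lib.Helper20 Cfsg.Agent.Lib.Helper81

variable {p : ℕ} [Fact p.Prime] {M : Ideal AlgInt} {G : Type*} [Group G] [Fintype G]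

theorem bsi_centralizer_inv (y : G) :
    Subgroup.centralizer ({y⁻¹} : Set G) = Subgroup.centralizer ({y} : Set G) := by
  ext g
  simp only [Subgroup.mem_centralizer_iff, Set.mem_singleton_iff, forall_eq]
  constructor
  · intro h
    have : y * (y⁻¹ * g) * y = y * (g * y⁻¹) * y := by rw [h]
    simpa [mul_assoc] using this.symm
  · intro h
    have : y⁻¹ * (y * g) * y⁻¹ = y⁻¹ * (g * y) * y⁻¹ := by rw [h]
    simpa [mul_assoc] using this.symm

theorem bsi (hM : IsPModular p M) {B : Set (IrrCharacter G)} (hB : IsPBlock M B) (x y : G) :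
    MemLocalRing M ((∑ᶠ χ ∈ B, (χ : G → ℂ) x * (χ : G → ℂ) y) /
      (Nat.card (Subgroup.centralizer ({y} : Set G)) : ℂ)) := by
  classical
  rw [d1_bS]
  unfold bS
  rw [← sum_blockCoeff_conj]
  obtain ⟨s, hs⟩ := csum (fun g => blockCoeff B (g * x⁻¹)) y⁻¹
  rw [hs, bsi_centralizer_inv]
  have hc : (Nat.card (Subgroup.centralizer ({y} : Set G)) : ℂ) ≠ 0 := by
    exact_mod_cast Nat.card_pos.ne'
  rw [mul_div_cancel_left₀ _ hc]
  exact memLocalRing_sum hM _ _ (fun g _ => osima hM B hB _)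

end Cfsg.Agent.Lib.Helper21.PI5D
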