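import Mathlib
import Cfsg.Agent.Lib.Helper21.PI5D.Defs

set_option autoImplicit false
set_option linter.unusedSectionVars false

/-! # Ladder PI5D, rung CCARD -/

namespace Cfsg.Agent.Lib.Helper21.PI5D

open Cfsg

variable {G : Type*} [Group G] [Fintype G]

theorem ccard (H : Subgroup G) (h : H) (t : G)
    (hc : Subgroup.centralizer ({(h : G)} : Set G) ≤ H) :
    Nat.card (Subgroup.centralizer ({t * (h : G) * t⁻¹} : Set G))
      = Nat.card (Subgroup.centralizer ({h} : Set H)) := by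
  refine Nat.card_congr ⟨fun x => ⟨⟨t⁻¹ * (x : G) * t, hc ?_⟩, ?_⟩,
    fun y => ⟨t * ((y : H) : G) * t⁻¹, ?_⟩, ?_, ?_⟩
  · have hx := Subgroup.mem_centralizer_singleton_iff.1 x.2
    rw [Subgroup.mem_centralizer_singleton_iff]
    have : (x : G) * (t * (h : G) * t⁻¹) = (t * (h : G) * t⁻¹) * (x : G) := hx
    calc t⁻¹ * (x : G) * t * (h : G) = t⁻¹ * ((x : G) * (t * (h : G) * t⁻¹)) * t := by group
      _ = t⁻¹ * ((t * (h : G) * t⁻¹) * (x : G)) * t := by rw [this]
      _ = (h : G) * (t⁻¹ * (x : G) * t) := by group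
  · have hx := Subgroup.mem_centralizer_singleton_iff.1 x.2
    rw [Subgroup.mem_centralizer_singleton_iff]
    apply Subtype.ext
    have : (x : G) * (t * (h : G) * t⁻¹) = (t * (h : G) * t⁻¹) * (x : G) := hx
    show t⁻¹ * (x : G) * t * (h : G) = (h : G) * (t⁻¹ * (x : G) * t)
    calc t⁻¹ * (x : G) * t * (h : G) = t⁻¹ * ((x : G) * (t * (h : G) * t⁻¹)) * t := by group
      _ = t⁻¹ * ((t * (h : G) * t⁻¹) * (x : G)) * t := by rw [this]
      _ = (h : G) * (t⁻¹ * (x : G) * t) := by group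
  · have hy := Subgroup.mem_centralizer_singleton_iff.1 y.2
    have hy' : ((y : H) : G) * (h : G) = (h : G) * ((y : H) : G) := congrArg Subtype.val hy
    rw [Subgroup.mem_centralizer_singleton_iff]
    calc t * ((y : H) : G) * t⁻¹ * (t * (h : G) * t⁻¹)
        = t * (((y : H) : G) * (h : G)) * t⁻¹ := by group
      _ = t * ((h : G) * ((y : H) : G)) * t⁻¹ := by rw [hy']
      _ = t * (h : G) * t⁻¹ * (t * ((y : H) : G) * t⁻¹) := by group
  · intro x
    apply Subtype.ext
    show t * (t⁻¹ * (x : G) * t) * t⁻¹ = (x : G)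
    group
  · intro y
    apply Subtype.ext
    apply Subtype.ext
    show t⁻¹ * (t * ((y : H) : G) * t⁻¹) * t = ((y : H) : G)
    group

end Cfsg.Agent.Lib.Helper21.PI5D
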