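import Cfsg.Agent.Lib.Helper81.RankSum
import Cfsg.Agent.Lib.Helper82.Central
import Cfsg.Agent.Lib.Helper19.IndFun2
import Cfsg.Agent.Lib.Helper21.PI5D.Defs
import Cfsg.Agent.Lib.Helper83.PI5.Iface
import Cfsg.Agent.Lib.Helper21.PI5D.D1

set_option autoImplicit false
set_option linter.unusedSectionVars false

namespace Cfsg.Agent.Lib.Helper21.PI5D

open scoped BigOperators ComplexConjugate
open Cfsg Cfsg.Agent.Lib.Helper20 Cfsg.Agent.Lib.Helper81 Cfsg.Agent.Lib.Helper82.CY2U
open Cfsg.Agent.Lib.Helper83.PI5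

variable {p : ℕ} [Fact p.Prime] {M : Ideal AlgInt} {G : Type*} [Group G] [Fintype G]

theorem lin_col [Fintype (IrrCharacter G)] (B : Set (IrrCharacter G)) (y h : G) :
    lin (col B y) h = ∑ᶠ χ ∈ B, (χ : G → ℂ) h * (χ : G → ℂ) y := by
  classical
  rw [finsum_mem_irr]
  unfold lin col
  apply Finset.sum_congr rfl; intro χ _
  split_ifs
  · ring
  · ring

theorem kcol (hM : IsPModular p M) [Fintype (IrrCharacter G)] {B : Set (IrrCharacter G)}
    (hB : IsPBlock M B) {y : G} (hy : ¬ IsPRegular p y) : col B y ∈ KK p B := by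
  classical
  refine ⟨fun χ hχ => ?_, fun g hg => ?_⟩
  · unfold col; rw [if_neg hχ]
  · have h := lin_col B y g
    unfold lin at h
    rw [h]
    exact d1 hM hB hg hy

theorem lin_classFunction [Fintype (IrrCharacter G)] (a : IrrCharacter G → ℂ) :
    IsClassFunction G (lin a) := by
  intro g h
  unfold lin
  apply Finset.sum_congr rfl; intro χ _
  rw [irr_classFunction χ g h]

end Cfsg.Agent.Lib.Helper21.PI5D
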