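import Cfsg.Agent.Lib.Helper81.RankSum
import Cfsg.Agent.Lib.Helper82.Central
import Cfsg.Agent.Lib.Helper19.IndFun2
import Cfsg.Agent.Lib.Helper21.PI5D.Defs
import Cfsg.Agent.Lib.Helper83.PI5.Iface
import Cfsg.Agent.Lib.Helper21.PI5D.KCOL
import Cfsg.Agent.Lib.Helper21.PI5D.IREG

set_option autoImplicit false
set_option linter.unusedSectionVars false

namespace Cfsg.Agent.Lib.Helper21.PI5D

open scoped BigOperators ComplexConjugate
open Cfsg Cfsg.Agent.Lib.Helper20 Cfsg.Agent.Lib.Helper81 Cfsg.Agent.Lib.Helper82.CY2U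
open Cfsg.Agent.Lib.Helper83.PI5

variable {p : ℕ} [Fact p.Prime] {M : Ideal AlgInt} {G : Type*} [Group G] [Fintype G]

section main
variable (H : Subgroup G) [Fintype H] [Fintype (IrrCharacter G)] [Fintype (IrrCharacter H)]
  {B : Set (IrrCharacter G)} {c : Set (IrrCharacter H)} {A : Set G}
  {I : IrrCharacter H → IrrCharacter G} {ε : IrrCharacter H → ℤ}

theorem d2 (hM : IsPModular p M) (hc : IsPBlock M c) (hstar : Star p H c I ε) (x : G) {y : H}
    (hy : ¬ IsPRegular p y) :
    signedBijectionKernel c I ε x y = indFun H (lin (col c y)) x := by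
  classical
  rw [← hstar (col c y) (kcol hM hc hy) x]
  unfold signedBijectionKernel
  rw [finsum_mem_irr]
  apply Finset.sum_congr rfl
  intro η _
  unfold col
  split_ifs
  · ring
  · ring

theorem d2r (hM : IsPModular p M) (hc : IsPBlock M c) (hstar : Star p H c I ε) {x : G} {y : H}
    (hx : IsPRegular p x) (hy : ¬ IsPRegular p y) : signedBijectionKernel c I ε x y = 0 := by
  rw [d2 H hM hc hstar x hy]
  exact ind_reg' H _ (fun h hh => (kcol hM hc hy).2 h hh) hx

end main

end Cfsg.Agent.Lib.Helper21.PI5D
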