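import Cfsg.Agent.Lib.Helper81.RankSum
import Cfsg.Agent.Lib.Helper82.Central
import Cfsg.Agent.Lib.Helper19.IndFun2
import Cfsg.Agent.Lib.Helper21.PI5D.Defs
import Cfsg.Agent.Lib.Helper83.PI5.Iface
import Cfsg.Agent.Lib.Helper21.PI5D.KCOL
import Cfsg.Agent.Lib.Helper21.PI5D.IREG

set_option autoImplicit false
set_option linter.unusedSectionVars false

namespace Cfsg.Agent.Lib.Helper21.PI5D

open scoped BigOperators ComplexConjugate
open Cfsg Cfsg.Agent.Lib.Helper20 Cfsg.Agent.Lib.Helper81 Cfsg.Agent.Lib.Helper82.CY2U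
open Cfsg.Agent.Lib.Helper83.PI5

variable {p : ℕ} [Fact p.Prime] {M : Ideal AlgInt} {G : Type*} [Group G] [Fintype G]

section main
variable (H : Subgroup G) [Fintype H] [Fintype (IrrCharacter G)] [Fintype (IrrCharacter H)]
  {B : Set (IrrCharacter G)} {c : Set (IrrCharacter H)} {A : Set G}
  {I : IrrCharacter H → IrrCharacter G} {ε : IrrCharacter H → ℤ}

open Classical in
/-- the signed permutation map attached to `(I, ε)` -/
noncomputable def d3Ih (c : Set (IrrCharacter H)) (I : IrrCharacter H → IrrCharacter G)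
    (ε : IrrCharacter H → ℤ) : (IrrCharacter H → ℂ) →ₗ[ℂ] (IrrCharacter G → ℂ) where
  toFun := fun a χ => ∑ η : IrrCharacter H, if η ∈ c ∧ I η = χ then (ε η : ℂ) * a η else 0
  map_add' := fun a b => by
    funext χ
    simp only [Pi.add_apply, ← Finset.sum_add_distrib]
    apply Finset.sum_congr rfl; intro η _
    split_ifs
    · ring
    · simp
  map_smul' := fun r a => by
    funext χ
    simp only [Pi.smul_apply, smul_eq_mul, RingHom.id_apply, Finset.mul_sum]
    apply Finset.sum_congr rfl; intro η _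
    split_ifs
    · ring
    · simp

open Classical in
theorem d3_apply (a : IrrCharacter H → ℂ) (χ : IrrCharacter G) :
    d3Ih H c I ε a χ = ∑ η : IrrCharacter H, if η ∈ c ∧ I η = χ then (ε η : ℂ) * a η else 0 := rfl

open Classical in
theorem d3_sum (a : IrrCharacter H → ℂ) (g : G) :
    ∑ χ : IrrCharacter G, d3Ih H c I ε a χ * (χ : G → ℂ) g
      = ∑ η : IrrCharacter H, if η ∈ c then a η * (ε η : ℂ) * (I η : G → ℂ) g else 0 := by
  simp only [d3_apply, Finset.sum_mul]
  rw [Finset.sum_comm]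
  apply Finset.sum_congr rfl; intro η _
  by_cases hη : η ∈ c
  · simp only [hη, true_and, if_true, ite_mul, zero_mul]
    rw [Finset.sum_ite_eq Finset.univ (I η), if_pos (Finset.mem_univ _)]
    ring
  · simp [hη]

theorem d3_val (hI : Set.BijOn I c B) (a : IrrCharacter H → ℂ) {η : IrrCharacter H} (hη : η ∈ c) :
    d3Ih H c I ε a (I η) = (ε η : ℂ) * a η := by
  classical
  rw [d3_apply, Finset.sum_eq_single η]
  · rw [if_pos ⟨hη, rfl⟩]
  · intro η' _ hne
    rw [if_neg]
    rintro ⟨h1, h2⟩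
    exact hne (hI.injOn h1 hη h2)
  · intro h; exact absurd (Finset.mem_univ _) h

theorem d3_mem (hI : Set.BijOn I c B) (hstar : Star p H c I ε) (a : IrrCharacter H → ℂ)
    (ha : a ∈ KK p c) : d3Ih H c I ε a ∈ KK p B := by
  classical
  refine ⟨fun χ hχ => ?_, fun g hg => ?_⟩
  · rw [d3_apply]
    apply Finset.sum_eq_zero; intro η _
    rw [if_neg]
    rintro ⟨h1, h2⟩
    exact hχ (h2 ▸ hI.mapsTo h1)
  · rw [d3_sum]
    have h1 := hstar a ha g
    rw [ind_reg' H (lin a) (fun h hh => ha.2 h hh) hg] at h1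
    refine Eq.trans ?_ h1
    apply Finset.sum_congr rfl; intro η _
    split_ifs with hη
    · rfl
    · rw [ha.1 η hη]; simp

/-! ######## D3 ######## -/
theorem d3 (hM : IsPModular p M) (hB : IsPBlock M B) (hI : Set.BijOn I c B)
    (hε : ∀ η ∈ c, ε η = 1 ∨ ε η = -1) (hstar : Star p H c I ε)
    (hfin : Module.finrank ℂ (KK p c) = Module.finrank ℂ (KK p B)) {x : G} {y : H}
    (hx : ¬ IsPRegular p x) (hy : IsPRegular p y) : signedBijectionKernel c I ε x y = 0 := by
  classical
  let L : KK p c →ₗ[ℂ] KK p B := (d3Ih H c I ε).restrict (d3_mem H hI hstar)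
  have hL : ∀ a : KK p c, ((L a : KK p B) : IrrCharacter G → ℂ) = d3Ih H c I ε a.1 := fun a => rfl
  have hinj : Function.Injective L := by
    rw [← LinearMap.ker_eq_bot, LinearMap.ker_eq_bot']
    intro a ha
    apply Subtype.ext; funext η
    by_cases hη : η ∈ c
    · have h1 : d3Ih H c I ε a.1 (I η) = 0 := by
        rw [← hL, ha]; rfl
      rw [d3_val H hI _ hη] at h1
      have h2 : (ε η : ℂ) ≠ 0 := by rcases hε η hη with h | h <;> rw [h] <;> norm_num
      exact (mul_eq_zero.1 h1).resolve_left h2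
    · exact a.2.1 η hη
  have hsurj : Function.Surjective L :=
    (LinearMap.injective_iff_surjective_of_finrank_eq_finrank hfin).1 hinj
  obtain ⟨a, ha⟩ := hsurj ⟨col B x, kcol hM hB hx⟩
  have ha' : ∀ η ∈ c, (ε η : ℂ) * a.1 η = (I η : G → ℂ) x := by
    intro η hη
    rw [← d3_val H hI a.1 hη, ← hL, ha]
    show col B x (I η) = _
    rw [col, if_pos (hI.mapsTo hη)]
  have h0 := a.2.2 y hy
  unfold signedBijectionKernel
  rw [finsum_mem_irr]
  refine Eq.trans ?_ h0
  apply Finset.sum_congr rfl; intro η _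
  split_ifs with hη
  · rw [← ha' η hη]
    have h2 : (ε η : ℂ) * (ε η : ℂ) = 1 := by rcases hε η hη with h | h <;> rw [h] <;> norm_num
    linear_combination (a.1 η * (η : H → ℂ) y) * h2
  · rw [a.2.1 η hη]; simp

end main

end Cfsg.Agent.Lib.Helper21.PI5D
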