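import Cfsg.Agent.Lib.Helper81.RankSum
import Cfsg.Agent.Lib.Helper82.Central
import Cfsg.Agent.Lib.Helper19.IndFun2
import Cfsg.Agent.Lib.Helper21.PI5D.Defs

/-! Ladder PI5D (helper21), rung QS (helper56). -/

set_option autoImplicit false
set_option linter.unusedSectionVars false

namespace Cfsg.Agent.Lib.Helper21.PI5D

open scoped BigOperators ComplexConjugate
open Cfsg Cfsg.Agent.Lib.Helper20 Cfsg.Agent.Lib.Helper81

theorem qs {C : Type*} [Group C] [Fintype C] (ξ : IrrCharacter C) {z : C}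
    (hz : z ∈ Subgroup.center C) (Q : Subgroup C) :
    IsIntegral ℤ ((Nat.card Q : ℂ)⁻¹ * ∑ᶠ u : Q, (ξ : C → ℂ) (z * (u : C))) := by
  classical
  rw [finsum_eq_sum_of_fintype]
  have h10 : (ξ : C → ℂ) 1 ≠ 0 := irr_one_ne_zero ξ.2
  have hQc : (Nat.card Q : ℂ) ≠ 0 := by exact_mod_cast Nat.card_pos.ne'
  have hw : IsIntegral ℤ ((ξ : C → ℂ) z / (ξ : C → ℂ) 1) := by
    have h := centralChar_isIntegral ξ z
    have hidx : (Subgroup.centralizer ({z} : Set C)).index = 1 := by
      rw [Subgroup.index_eq_one, eq_top_iff]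
      intro g _
      rw [Subgroup.mem_centralizer_singleton_iff]
      exact (Subgroup.mem_center_iff.1 hz g)
    unfold centralChar at h
    rw [hidx] at h
    simpa using h
  obtain ⟨a, ha⟩ := isCharacter_classInner_nat'
    (isCharacter_restrict (isCharacter_of_isIrrCharacter ξ.2) Q) (isCharacter_one (G := Q))
  have h2 : ∑ x : Q, (ξ : C → ℂ) (x : C) = (Nat.card Q : ℂ) * a := by
    rw [← ha]
    simp only [classInner, map_one, mul_one]
    rw [← mul_assoc, mul_inv_cancel₀ hQc, one_mul]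
  have h3 : (Nat.card Q : ℂ)⁻¹ * ∑ u : Q, (ξ : C → ℂ) (z * (u : C))
      = ((ξ : C → ℂ) z / (ξ : C → ℂ) 1) * a := by
    have h4 : ∀ u : Q, (ξ : C → ℂ) (z * (u : C))
        = ((ξ : C → ℂ) z / (ξ : C → ℂ) 1) * (ξ : C → ℂ) (u : C) := by
      intro u
      have h5 := Cfsg.Agent.Lib.Helper82.isIrr_central_mul ξ.2 hz (u : C)
      rw [div_mul_eq_mul_div, eq_div_iff h10]
      exact h5
    simp only [h4]
    rw [← Finset.mul_sum, h2]
    field_simp
  rw [h3]
  exact hw.mul (by exact_mod_cast isIntegral_algebraMap (R := ℤ) (A := ℂ) (x := (a : ℤ)))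

end Cfsg.Agent.Lib.Helper21.PI5D
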