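import Cfsg.Agent.Lib.Helper81.RankSum
import Cfsg.Agent.Lib.Helper82.Central
import Cfsg.Agent.Lib.Helper19.IndFun2
import Cfsg.Agent.Lib.Helper21.PI5D.Defs
import Cfsg.Agent.Lib.Helper21.PI5D.QS

set_option autoImplicit false
set_option linter.unusedSectionVars false

namespace Cfsg.Agent.Lib.Helper21.PI5D

open scoped BigOperators ComplexConjugate
open Cfsg Cfsg.Agent.Lib.Helper20 Cfsg.Agent.Lib.Helper81

variable {p : ℕ} [Fact p.Prime] {M : Ideal AlgInt} {G : Type*} [Group G] [Fintype G]

theorem qsr_multiset {C : Type*} [Group C] [Fintype C] {z : C} (hz : z ∈ Subgroup.center C) (Q : Subgroup C)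
    (l : Multiset (IrrCharacter C)) :
    IsIntegral ℤ ((Nat.card Q : ℂ)⁻¹ * ∑ᶠ u : Q, (l.map Subtype.val).sum (z * (u : C))) := by
  classical
  have := Fintype.ofFinite Q
  induction l using Multiset.induction_on with
  | empty =>
    simp only [Multiset.map_zero, Multiset.sum_zero, Pi.zero_apply, finsum_zero, mul_zero]
    exact isIntegral_zero
  | cons a l ih =>
    have h := qs a hz Q
    rw [finsum_eq_sum_of_fintype] at ih h ⊢
    have e : (Nat.card Q : ℂ)⁻¹ * ∑ u : Q, ((a ::ₘ l).map Subtype.val).sum (z * (u : C)) =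
        (Nat.card Q : ℂ)⁻¹ * ∑ u : Q, (a : C → ℂ) (z * (u : C)) +
        (Nat.card Q : ℂ)⁻¹ * ∑ u : Q, (l.map Subtype.val).sum (z * (u : C)) := by
      rw [← mul_add, ← Finset.sum_add_distrib]
      congr 1
      refine Finset.sum_congr rfl fun u _ => ?_
      rw [Multiset.map_cons, Multiset.sum_cons, Pi.add_apply]
    rw [e]
    exact h.add ih

/-- QSR. -/
theorem qsr (χ : IrrCharacter G) (g : G) (Q : Subgroup G)
    (hQ : Q ≤ Subgroup.centralizer ({g} : Set G)) :
    IsIntegral ℤ ((Nat.card Q : ℂ)⁻¹ * ∑ᶠ u : Q, (χ : G → ℂ) (g * (u : G))) := by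
  classical
  have hgC : g ∈ Subgroup.centralizer ({g} : Set G) := by
    rw [Subgroup.mem_centralizer_singleton_iff]
  have := Fintype.ofFinite (Subgroup.centralizer ({g} : Set G))
  have hz : (⟨g, hgC⟩ : Subgroup.centralizer ({g} : Set G)) ∈
      Subgroup.center (Subgroup.centralizer ({g} : Set G)) := by
    rw [Subgroup.mem_center_iff]
    rintro ⟨c, hc⟩
    apply Subtype.ext
    have := Subgroup.mem_centralizer_singleton_iff.1 hc
    change c * g = g * c
    exact this
  have hchar : IsCharacter (Subgroup.centralizer ({g} : Set G))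
      (fun x : Subgroup.centralizer ({g} : Set G) => (χ : G → ℂ) x) :=
    isCharacter_restrict (isCharacter_of_isIrrCharacter χ.2) _
  obtain ⟨l, hl⟩ := exists_multiset_of_isCharacter hchar
  have key := qsr_multiset hz (Q.subgroupOf (Subgroup.centralizer ({g} : Set G))) l
  rw [← hl] at key
  have e := Subgroup.subgroupOfEquivOfLe hQ
  have hcard : Nat.card (Q.subgroupOf (Subgroup.centralizer ({g} : Set G))) = Nat.card Q :=
    Nat.card_congr (Subgroup.subgroupOfEquivOfLe hQ).toEquiv
  rw [hcard] at key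
  have hsum : ∑ᶠ u : Q.subgroupOf (Subgroup.centralizer ({g} : Set G)),
      (χ : G → ℂ) (((⟨g, hgC⟩ : Subgroup.centralizer ({g} : Set G)) *
        (u : Subgroup.centralizer ({g} : Set G)) : Subgroup.centralizer ({g} : Set G)) : G) =
      ∑ᶠ u : Q, (χ : G → ℂ) (g * (u : G)) := by
    rw [← finsum_comp_equiv (Subgroup.subgroupOfEquivOfLe hQ).toEquiv]
    rfl
  rw [← hsum]
  exact key

end Cfsg.Agent.Lib.Helper21.PI5D
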