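import Mathlib
import Cfsg.Agent.Lib.Helper21.PI5D.Defs

set_option autoImplicit false
set_option linter.unusedSectionVars false

/-! # Ladder PI5D, rung SING -/

namespace Cfsg.Agent.Lib.Helper21.PI5D

open Cfsg

variable {p : ℕ} [Fact p.Prime] {G : Type*} [Group G] [Fintype G]

theorem sing_mul {g u : G} (hg : IsPRegular p g) (hgu : g * u = u * g) (hu1 : u ≠ 1)
    (hu : ∃ k : ℕ, u ^ (p ^ k) = 1) : ¬ IsPRegular p (g * u) := by
  have hp : p.Prime := Fact.out
  obtain ⟨k, hk⟩ := hu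
  have hg' : ¬ p ∣ orderOf g := hg
  intro hreg
  have hreg' : ¬ p ∣ orderOf (g * u) := hreg
  apply hreg'
  obtain ⟨j, _, hj⟩ := (Nat.dvd_prime_pow hp).1 (orderOf_dvd_of_pow_eq_one hk)
  have hj1 : j ≠ 0 := by
    rintro rfl
    rw [pow_zero, orderOf_eq_one_iff] at hj
    exact hu1 hj
  have hpu : p ∣ orderOf u := by
    rw [hj]; exact dvd_pow_self p hj1
  have hcop : (orderOf u).Coprime (orderOf g) := by
    rw [hj]
    exact Nat.Coprime.pow_left j ((Nat.Prime.coprime_iff_not_dvd hp).2 hg')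
  have h1 : (g * u) ^ orderOf g = u ^ orderOf g := by
    have hc : Commute g u := hgu
    rw [hc.mul_pow, pow_orderOf_eq_one, one_mul]
  have h2 : orderOf (u ^ orderOf g) = orderOf u := hcop.orderOf_pow
  have h3 : orderOf ((g * u) ^ orderOf g) ∣ orderOf (g * u) := orderOf_pow_dvd _
  rw [h1, h2] at h3
  exact hpu.trans h3

end Cfsg.Agent.Lib.Helper21.PI5D
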