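import Cfsg.Agent.Lib.Helper81.RankSum
import Cfsg.Agent.Lib.Helper82.Central
import Cfsg.Agent.Lib.Helper19.IndFun2
import Cfsg.Agent.Lib.Helper21.PI5D.Defs
import Cfsg.Agent.Lib.Helper21.PI5D.QSR
import Cfsg.Agent.Lib.Helper21.PI5D.SING

/-! Ladder PI5D (helper21), rung D4 (helper56). -/

set_option autoImplicit false
set_option linter.unusedSectionVars false

namespace Cfsg.Agent.Lib.Helper21.PI5D

open scoped BigOperators ComplexConjugate
open Cfsg Cfsg.Agent.Lib.Helper20 Cfsg.Agent.Lib.Helper81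

variable {p : ℕ} [Fact p.Prime] {M : Ideal AlgInt} {G : Type*} [Group G] [Fintype G]

theorem d4 (hM : IsPModular p M) [Fintype (IrrCharacter G)] (a : IrrCharacter G → ℂ)
    (ha : ∀ χ, IsIntegral ℤ (a χ))
    (hvan : ∀ g : G, ¬ IsPRegular p g → ∑ χ : IrrCharacter G, a χ * (χ : G → ℂ) g = 0) (g : G) :
    MemLocalRing M ((∑ χ : IrrCharacter G, a χ * (χ : G → ℂ) g) /
      (Nat.card (Subgroup.centralizer ({g} : Set G)) : ℂ)) := by
  classical
  by_cases hg : IsPRegular p g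
  swap
  · rw [hvan g hg, zero_div]
    exact memLocalRing_zero hM
  obtain ⟨C, hC⟩ : ∃ C : Subgroup G, C = Subgroup.centralizer ({g} : Set G) := ⟨_, rfl⟩
  rw [← hC]
  obtain ⟨Q₀⟩ : Nonempty (Sylow p C) := inferInstance
  obtain ⟨Q, hQdef⟩ : ∃ Q : Subgroup G, Q = (Q₀ : Subgroup C).map C.subtype := ⟨_, rfl⟩
  have hQC : Q ≤ C := by
    rw [hQdef]
    rintro _ ⟨x, _, rfl⟩
    exact x.2
  have hQcard : Nat.card Q = Nat.card (Q₀ : Subgroup C) := by
    rw [hQdef]
    exact Subgroup.card_map_of_injective C.subtype_injective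
  have hCcard : Nat.card C = Nat.card Q * (Q₀ : Subgroup C).index := by
    rw [hQcard]
    exact ((Q₀ : Subgroup C).card_mul_index).symm
  have hm : ¬ p ∣ (Q₀ : Subgroup C).index := Q₀.not_dvd_index
  have hQp : ∀ u ∈ Q, ∃ k : ℕ, u ^ (p ^ k) = 1 := by
    intro u hu
    rw [hQdef] at hu
    obtain ⟨x, hx, rfl⟩ := hu
    obtain ⟨k, hk⟩ := Q₀.2 ⟨x, hx⟩
    refine ⟨k, ?_⟩
    have h1 := congrArg (fun y : (Q₀ : Subgroup C) => ((y : C) : G)) hk
    simpa using h1
  have hQc : (Nat.card Q : ℂ) ≠ 0 := by exact_mod_cast Nat.card_pos.ne'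
  -- the sum over `Q`
  have h1 : ∑ u : Q, ∑ χ : IrrCharacter G, a χ * (χ : G → ℂ) (g * (u : G))
      = ∑ χ : IrrCharacter G, a χ * (χ : G → ℂ) g := by
    rw [Finset.sum_eq_single (1 : Q)]
    · simp
    · intro u _ hu1
      apply hvan
      apply sing_mul hg
      · have h2 := hQC u.2
        rw [hC, Subgroup.mem_centralizer_singleton_iff] at h2
        exact h2.symm
      · intro h
        exact hu1 (Subtype.ext h)
      · exact hQp u u.2
    · intro h
      exact absurd (Finset.mem_univ _) h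
  have h2 : ∑ χ : IrrCharacter G, a χ * (χ : G → ℂ) g = (Nat.card Q : ℂ) *
      ∑ χ : IrrCharacter G, a χ * ((Nat.card Q : ℂ)⁻¹ * ∑ᶠ u : Q, (χ : G → ℂ) (g * (u : G))) := by
    rw [← h1, Finset.sum_comm, Finset.mul_sum]
    apply Finset.sum_congr rfl
    intro χ _
    rw [finsum_eq_sum_of_fintype, ← Finset.mul_sum]
    field_simp
  have hW : IsIntegral ℤ (∑ χ : IrrCharacter G,
      a χ * ((Nat.card Q : ℂ)⁻¹ * ∑ᶠ u : Q, (χ : G → ℂ) (g * (u : G)))) := by
    apply IsIntegral.sum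
    intro χ _
    exact (ha χ).mul (qsr χ g Q (hC ▸ hQC))
  rw [h2, hCcard]
  push_cast
  rw [mul_div_mul_left _ _ hQc]
  apply memLocalRing_div hM (memLocalRing_of_isIntegral hM hW) (memLocalRing_natCast hM _)
  rw [memLocalIdeal_natCast_iff hM]
  exact hm

end Cfsg.Agent.Lib.Helper21.PI5D
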