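import Cfsg.Agent.Lib.Helper81.RankSum
import Cfsg.Agent.Lib.Helper82.Central
import Cfsg.Agent.Lib.Helper19.IndFun2
import Cfsg.Agent.Lib.Helper21.PI5D.Defs
import Cfsg.Agent.Lib.Helper83.PI5.Iface
import Cfsg.Agent.Lib.Helper21.PI5D.D4

set_option autoImplicit false
set_option linter.unusedSectionVars false

namespace Cfsg.Agent.Lib.Helper21.PI5D

open scoped BigOperators ComplexConjugate
open Cfsg Cfsg.Agent.Lib.Helper20 Cfsg.Agent.Lib.Helper81 Cfsg.Agent.Lib.Helper82.CY2U
open Cfsg.Agent.Lib.Helper83.PI5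

variable {p : ℕ} [Fact p.Prime] {M : Ideal AlgInt} {G : Type*} [Group G] [Fintype G]

section main
variable (H : Subgroup G) [Fintype H] [Fintype (IrrCharacter G)] [Fintype (IrrCharacter H)]
  {B : Set (IrrCharacter G)} {c : Set (IrrCharacter H)} {A : Set G}
  {I : IrrCharacter H → IrrCharacter G} {ε : IrrCharacter H → ℤ}

theorem d4g_int {X : Type*} [Group X] [Finite X] (χ : IrrCharacter X) (g : X) :
    IsIntegral ℤ ((χ : X → ℂ) g) :=
  isCharacter_isIntegral (isCharacter_of_isIrrCharacter χ.2) g

theorem d4g (hM : IsPModular p M) (hI : Set.BijOn I c B)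
    (hvan : ∀ (x : G) (y : H), ¬ IsPRegular p x → IsPRegular p y →
      signedBijectionKernel c I ε x y = 0) (x : G) {y : H} (hy : IsPRegular p y) :
    MemLocalRing M (signedBijectionKernel c I ε x y /
      (Nat.card (Subgroup.centralizer ({x} : Set G)) : ℂ)) := by
  classical
  have hker : ∀ x : G, signedBijectionKernel c I ε x y
      = ∑ χ : IrrCharacter G, (∑ η : IrrCharacter H,
          if η ∈ c ∧ I η = χ then (ε η : ℂ) * (η : H → ℂ) y else 0) * (χ : G → ℂ) x := by
    intro x
    unfold signedBijectionKernel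
    rw [finsum_mem_irr]
    simp only [Finset.sum_mul]
    rw [Finset.sum_comm]
    apply Finset.sum_congr rfl
    intro η _
    by_cases hη : η ∈ c
    · rw [if_pos hη, Finset.sum_eq_single (I η)]
      · rw [if_pos ⟨hη, rfl⟩]; ring
      · intro χ _ hχ
        rw [if_neg (fun h => hχ h.2.symm), zero_mul]
      · intro h; exact absurd (Finset.mem_univ _) h
    · rw [if_neg hη]
      symm
      apply Finset.sum_eq_zero
      intro χ _
      rw [if_neg (fun h => hη h.1), zero_mul]
  rw [hker x]
  apply d4 hM (fun χ : IrrCharacter G => ∑ η : IrrCharacter H,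
          if η ∈ c ∧ I η = χ then (ε η : ℂ) * (η : H → ℂ) y else 0)
  · intro χ
    apply IsIntegral.sum
    intro η _
    split_ifs
    · exact (isIntegral_algebraMap (R := ℤ) (A := ℂ) (x := ε η)).mul (d4g_int η y)
    · exact isIntegral_zero
  · intro g hg
    rw [← hker g]
    exact hvan g y hg hy

end main

end Cfsg.Agent.Lib.Helper21.PI5D
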