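import Cfsg.Agent.Lib.Helper81.RankSum
import Cfsg.Agent.Lib.Helper82.Central
import Cfsg.Agent.Lib.Helper19.IndFun2
import Cfsg.Agent.Lib.Helper19.IndFun
import Cfsg.Agent.Lib.Helper21.PI5D.Defs

set_option autoImplicit false
set_option linter.unusedSectionVars false

namespace Cfsg.Agent.Lib.Helper21.PI5D

open scoped BigOperators ComplexConjugate
open Cfsg Cfsg.Agent.Lib.Helper19

variable {G : Type*} [Group G] [Fintype G]

theorem ind_val (H : Subgroup G) {A : Set G}
    (hti : ∀ x ∈ A, ∀ g : G, g * x * g⁻¹ ∈ A → g ∈ H) {α : H → ℂ} (hcl : IsClassFunction H α)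
    (hsupp : ∀ h : H, α h ≠ 0 → (h : G) ∈ A) (y : H) (hy : (y : G) ∈ A) :
    indFun H α (y : G) = α y := by
  classical
  have : Fintype H := Fintype.ofFinite _
  unfold indFun
  have h1 : ∀ x : G, extendByZero H α (x⁻¹ * (y : G) * x) = if x ∈ H then α y else 0 := by
    intro x
    split_ifs with hx
    · have h2 : x⁻¹ * (y : G) * x = ((⟨x, hx⟩⁻¹ * y * (⟨x, hx⟩⁻¹)⁻¹ : H) : G) := by simp
      rw [h2, extendByZero_coe, hcl]
    · by_cases hm : x⁻¹ * (y : G) * x ∈ H
      · rw [extendByZero_of_mem H α hm]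
        by_contra h0
        apply hx
        have h3 := hsupp _ h0
        have h4 := hti (y : G) hy x⁻¹ (by simpa using h3)
        simpa using H.inv_mem h4
      · exact extendByZero_of_not_mem H α hm
  simp only [h1]
  rw [← Finset.sum_filter, Finset.sum_const, nsmul_eq_mul]
  have h5 : (Finset.univ.filter (fun x : G => x ∈ H)).card = Nat.card H := by
    rw [Nat.card_eq_fintype_card, Fintype.card_subtype]
  rw [h5, ← mul_assoc, inv_mul_cancel₀, one_mul]
  exact_mod_cast (Nat.card_pos (α := H)).ne'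

end Cfsg.Agent.Lib.Helper21.PI5D
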