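import Cfsg.Agent.Lib.Helper81.RankSum
import Cfsg.Agent.Lib.Helper82.Central
import Cfsg.Agent.Lib.Helper19.IndFun2
import Cfsg.Agent.Lib.Helper19.IndFun
import Cfsg.Agent.Lib.Helper21.PI5D.Defs

set_option autoImplicit false
set_option linter.unusedSectionVars false

namespace Cfsg.Agent.Lib.Helper21.PI5D

open scoped BigOperators ComplexConjugate
open Cfsg Cfsg.Agent.Lib.Helper19

variable {G : Type*} [Group G] [Fintype G]

theorem ind_zero (H : Subgroup G) {α : H → ℂ} {g : G}
    (h0 : ∀ (t : G) (h : H), (h : G) = t⁻¹ * g * t → α h = 0) : indFun H α g = 0 := by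
  classical
  unfold indFun
  rw [Finset.sum_eq_zero, mul_zero]
  intro x _
  by_cases hm : x⁻¹ * g * x ∈ H
  · rw [extendByZero_of_mem H α hm]
    exact h0 x ⟨_, hm⟩ rfl
  · exact extendByZero_of_not_mem H α hm

end Cfsg.Agent.Lib.Helper21.PI5D
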