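import Cfsg.Agent.Lib.Helper81.RankSum
import Cfsg.Agent.Lib.Helper82.Central
import Cfsg.Agent.Lib.Helper19.IndFun2
import Cfsg.Agent.Lib.Helper21.PI5D.Defs
import Cfsg.Agent.Lib.Helper83.PI5.Iface
import Cfsg.Agent.Lib.Helper21.PI5D.D2
import Cfsg.Agent.Lib.Helper21.PI5D.KCOL
import Cfsg.Agent.Lib.Helper21.PI5D.IVAL
import Cfsg.Agent.Lib.Helper21.PI5D.IZERO
import Cfsg.Agent.Lib.Helper21.PI5D.BSI
import Cfsg.Agent.Lib.Helper21.PI5D.CCARD

set_option autoImplicit false
set_option linter.unusedSectionVars false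

namespace Cfsg.Agent.Lib.Helper21.PI5D

open scoped BigOperators ComplexConjugate
open Cfsg Cfsg.Agent.Lib.Helper20 Cfsg.Agent.Lib.Helper81 Cfsg.Agent.Lib.Helper82.CY2U
open Cfsg.Agent.Lib.Helper83.PI5

variable {p : ℕ} [Fact p.Prime] {M : Ideal AlgInt} {G : Type*} [Group G] [Fintype G]

section main
variable (H : Subgroup G) [Fintype H] [Fintype (IrrCharacter G)] [Fintype (IrrCharacter H)]
  {B : Set (IrrCharacter G)} {c : Set (IrrCharacter H)} {A : Set G}
  {I : IrrCharacter H → IrrCharacter G} {ε : IrrCharacter H → ℤ}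

theorem d5 (hM : IsPModular p M) (hc : IsPBlock M c) (hA : TIData p H c A)
    (hstar : Star p H c I ε) (x : G) {y : H} (hy : ¬ IsPRegular p y) :
    MemLocalRing M (signedBijectionKernel c I ε x y /
      (Nat.card (Subgroup.centralizer ({x} : Set G)) : ℂ)) ∧
    MemLocalRing M (signedBijectionKernel c I ε x y /
      (Nat.card (Subgroup.centralizer ({y} : Set H)) : ℂ)) := by
  classical
  rw [d2 H hM hc hstar x hy]
  have hk : col c y ∈ KK p c := kcol hM hc hy
  by_cases h0 : ∀ (t : G) (h : H), (h : G) = t⁻¹ * x * t → lin (col c y) h = 0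
  · rw [ind_zero H h0, zero_div, zero_div]
    exact ⟨memLocalRing_zero hM, memLocalRing_zero hM⟩
  · push_neg at h0
    obtain ⟨t, h, hht, hne⟩ := h0
    have hhA : (h : G) ∈ A := hA.supp _ hk h hne
    have hx : x = t * (h : G) * t⁻¹ := by rw [hht]; group
    have h1 : indFun H (lin (col c y)) x = lin (col c y) h := by
      rw [hx, Cfsg.Agent.Lib.Helper19.indFun_isClassFunction H _ (h : G) t]
      exact ind_val H hA.ti (lin_classFunction _) (hA.supp _ hk) h hhA
    rw [h1, lin_col]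
    refine ⟨?_, bsi hM hc h y⟩
    have h2 := bsi hM hc y h
    rw [hx, ccard H h t (hA.cent _ hhA)]
    have h3 : (∑ᶠ χ ∈ c, (χ : H → ℂ) h * (χ : H → ℂ) y) = ∑ᶠ χ ∈ c, (χ : H → ℂ) y * (χ : H → ℂ) h := by
      simp only [mul_comm]
    rw [h3]
    exact h2

end main

end Cfsg.Agent.Lib.Helper21.PI5D
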