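import Cfsg.Agent.Lib.Helper83.PI5.Iface
import Cfsg.Agent.Lib.Helper21.PI5D.D2R
import Cfsg.Agent.Lib.Helper21.PI5D.D3
import Cfsg.Agent.Lib.Helper21.PI5D.D4G
import Cfsg.Agent.Lib.Helper21.PI5D.D4H
import Cfsg.Agent.Lib.Helper21.PI5D.D5

set_option autoImplicit false
set_option linter.unusedSectionVars false

namespace Cfsg.Agent.Lib.Helper21.PI5D

open scoped BigOperators ComplexConjugate
open Cfsg Cfsg.Agent.Lib.Helper20 Cfsg.Agent.Lib.Helper81 Cfsg.Agent.Lib.Helper82.CY2U
open Cfsg.Agent.Lib.Helper83.PI5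

variable {p : ℕ} [Fact p.Prime] {M : Ideal AlgInt} {G : Type*} [Group G] [Fintype G]

section main
variable (H : Subgroup G) [Fintype H] [Fintype (IrrCharacter G)] [Fintype (IrrCharacter H)]
  {B : Set (IrrCharacter G)} {c : Set (IrrCharacter H)} {A : Set G}
  {I : IrrCharacter H → IrrCharacter G} {ε : IrrCharacter H → ℤ}

/-- PI5 part D: the signed bijection `(I, ε)` extending induction on the class functions vanishing
on the `p`-regular elements is perfect. -/
theorem perfect (hM : IsPModular p M) (hB : IsPBlock M B) (hc : IsPBlock M c)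
    (hA : TIData p H c A) (hI : Set.BijOn I c B) (hε : ∀ η ∈ c, ε η = 1 ∨ ε η = -1)
    (hstar : Star p H c I ε)
    (hfin : Module.finrank ℂ (KK p c) = Module.finrank ℂ (KK p B)) :
    IsPerfectFun p M (signedBijectionKernel c I ε) := by
  have h3 : ∀ (x : G) (y : H), ¬ IsPRegular p x → IsPRegular p y →
      signedBijectionKernel c I ε x y = 0 := fun x y hx hy => d3 H hM hB hI hε hstar hfin hx hy
  have h2 : ∀ (x : G) (y : H), IsPRegular p x → ¬ IsPRegular p y →
      signedBijectionKernel c I ε x y = 0 := fun x y hx hy => d2r H hM hc hstar hx hy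
  intro x y
  by_cases hy : IsPRegular p y
  · by_cases hx : IsPRegular p x
    · exact ⟨d4g H hM hI h3 x hy, d4h H hM h2 hx y, Or.inl ⟨fun _ => hy, fun _ => hx⟩⟩
    · have h0 := h3 x y hx hy
      refine ⟨?_, ?_, Or.inr h0⟩ <;> rw [h0, zero_div] <;> exact memLocalRing_zero hM
  · obtain ⟨h5, h5'⟩ := d5 H hM hc hA hstar x hy
    refine ⟨h5, h5', ?_⟩
    by_cases hx : IsPRegular p x
    · exact Or.inr (h2 x y hx hy)
    · exact Or.inl ⟨fun h => absurd h hx, fun h => absurd h hy⟩

end main

end Cfsg.Agent.Lib.Helper21.PI5D
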